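import Cfsg.Agent.H454.Rg.ComAsm
import Cfsg.Agent.S0205

/-!
# S3691, F-D+2: the common part 11.3, final form (helper454)
-/

set_option autoImplicit false

namespace Cfsg.Agent.H386.Rg

open QuadraticMap Module

universe u v

variable {F : Type u} {V : Type v} [Field F] [Finite F] [AddCommGroup V] [Module F V] [FiniteDimensional F V]
  {Q : QuadraticForm F V} {p f m : ℕ} {K : Subgroup (V ≃ₗ[F] V)}

/-- **the common part 11.3** (exact statement of tools/plans/S3691_d2_stubs.lean.txt) -/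
theorem D2.common (h : D2 Q p f m K) (hm' : Odd (m - 1)) {r : ℕ} (hr : r.Prime) (hord : orderOf (p : ZMod r) = f * (m - 1))
    {y : V ≃ₗ[F] V} (hyr : orderOf y = r) {v : V} (hv : Q v ≠ 0) (hy : y ∈ stb K v)
    (hodd : ∀ x : V, Q x ≠ 0 → 2 ∣ Nat.card (stb K x) → p = 2)
    (A : Subgroup (V ≃ₗ[F] V)) (hA : A ≤ stb K v) (hAn : ∀ k ∈ stb K v, ∀ a ∈ A, k * a * k⁻¹ ∈ A)
    (hAc : Nat.card A = p ^ (f * (m - 1))) : False :=
  Cfsg.Agent.H454.Rg.common_of (fun _ _ _ hG => Cfsg.Agent.S0205.result hG) h hm' hr hord hyr hv hy hodd A hA hAn hAc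

end Cfsg.Agent.H386.Rg
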