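import Cfsg.Agent.H454.Rg.CommD
import Cfsg.Agent.H50.D2.ComI
import Cfsg.Agent.H50.D2.Stb

/-!
# S3691, F-D+2: assembly of the common part 11.3 (helper454)
-/

set_option autoImplicit false

namespace Cfsg.Agent.H454.Rg

open QuadraticMap Module Cfsg.Agent.H386.Rg

universe u v

variable {F : Type u} {V : Type v} [Field F] [Finite F] [AddCommGroup V] [Module F V] [FiniteDimensional F V]
  {Q : QuadraticForm F V} {p f m : ℕ} {K : Subgroup (V ≃ₗ[F] V)}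

theorem facts (h : D2 Q p f m K) : Facts Q p f m K :=
  ⟨fun _ hv _ hk ho hop ho2 => h.fixplane' hv hk ho hop ho2, fun _ hv => Cfsg.Agent.H50.D2.card_stb_dvd h hv⟩

/-- **the common part 11.3**, Feit–Thompson as a hypothesis -/
theorem common_of (hFT : ∀ (G : Type v) [Group G] [Finite G], Odd (Nat.card G) → Group.IsSolvable G)
    (h : D2 Q p f m K) (hm' : Odd (m - 1)) {r : ℕ} (hr : r.Prime) (hord : orderOf (p : ZMod r) = f * (m - 1))
    {y : V ≃ₗ[F] V} (hyr : orderOf y = r) {v : V} (hv : Q v ≠ 0) (hy : y ∈ stb K v)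
    (hodd : ∀ x : V, Q x ≠ 0 → 2 ∣ Nat.card (stb K x) → p = 2)
    (A : Subgroup (V ≃ₗ[F] V)) (hA : A ≤ stb K v) (hAn : ∀ k ∈ stb K v, ∀ a ∈ A, k * a * k⁻¹ ∈ A)
    (hAc : Nat.card A = p ^ (f * (m - 1))) : False := by
  obtain ⟨W, hWQ, hWd, hWv, hWy, hWA⟩ := Cfsg.Agent.H50.D2.common_i h hm' hr hord hyr hv hy A hA hAn hAc
  have c : Cx Q p f m K v y r A W := ⟨h, facts h, hr, hord, hyr, hv, hy, hodd, hA, hAn, hAc, hWQ, hWd, hWv, hWy, hWA⟩
  obtain ⟨M, hMK, hMc, hAM, hyM, hMA, -, -, hcent⟩ := c.reg hFT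
  exact c.last hm' ⟨hMK, hMc, hAM, hyM, hMA, hcent⟩

end Cfsg.Agent.H454.Rg
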