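import Cfsg.Agent.H454.Rg.FrobB
import Cfsg.Agent.H386.Rg.D2

/-!
# S3691, F-D+2, common part 11.3: steps (ii), (iii) (helper454)
-/

set_option autoImplicit false
set_option linter.style.haveILetI false

namespace Cfsg.Agent.H454.Rg

open QuadraticMap Module Cfsg.Agent.H386.Rg

universe u v

variable {F : Type u} {V : Type v} [Field F] [AddCommGroup V] [Module F V]

/-- in a hyperbolic plane containing the nonsingular vector `x` there is no singular `w ≠ 0` perpendicular to `x` -/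
theorem plane_zero {Q : QuadraticForm F V} {e g x w : V} (he : Q e = 0) (hg : Q g = 0) (heg : polar Q e g = 1)
    (hx : x ∈ Submodule.span F {e, g}) (hw : w ∈ Submodule.span F {e, g}) (hQx : Q x ≠ 0) (hQw : Q w = 0)
    (hxw : polar Q x w = 0) : w = 0 := by
  obtain ⟨a, b, rfl⟩ := Submodule.mem_span_pair.1 hx
  obtain ⟨c, d, rfl⟩ := Submodule.mem_span_pair.1 hw
  have hee : polar Q e e = 0 := by rw [polar_self, he, smul_zero]
  have hgg : polar Q g g = 0 := by rw [polar_self, hg, smul_zero]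
  have hge : polar Q g e = 1 := by rw [polar_comm, heg]
  have hQ : ∀ s t : F, Q (s • e + t • g) = s * t := by
    intro s t
    rw [QuadraticMap.map_add Q, QuadraticMap.map_smul, QuadraticMap.map_smul, he, hg, polar_smul_left, polar_smul_right, heg]
    simp
  rw [hQ] at hQx hQw
  have hp : a * d + b * c = 0 := by
    rw [polar_add_left, polar_add_right, polar_add_right, polar_smul_left, polar_smul_left, polar_smul_left, polar_smul_left,
      polar_smul_right, polar_smul_right, polar_smul_right, polar_smul_right, hee, hgg, heg, hge] at hxw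
    simpa using hxw
  have ha : a ≠ 0 := left_ne_zero_of_mul hQx
  have hb : b ≠ 0 := right_ne_zero_of_mul hQx
  rcases mul_eq_zero.1 hQw with h | h
  · subst h
    have : d = 0 := by
      have h1 : a * d = 0 := by simpa using hp
      exact (mul_eq_zero.1 h1).resolve_left ha
    subst this
    simp
  · subst h
    have : c = 0 := by
      have h1 : b * c = 0 := by simpa using hp
      exact (mul_eq_zero.1 h1).resolve_left hb
    subst this
    simp

variable [Finite F] [FiniteDimensional F V]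

/-- V2 and V3 -/
structure Facts (Q : QuadraticForm F V) (p f m : ℕ) (K : Subgroup (V ≃ₗ[F] V)) : Prop where
  plane : ∀ v : V, Q v ≠ 0 → ∀ k ∈ stb K v, (orderOf k).Prime → orderOf k ≠ p → orderOf k ≠ 2 →
    ∃ e g : V, Q e = 0 ∧ Q g = 0 ∧ polar Q e g = 1 ∧ v ∈ Submodule.span F {e, g} ∧ ∀ w : V, k w = w ↔ w ∈ Submodule.span F {e, g}
  card : ∀ v : V, Q v ≠ 0 → Nat.card (stb K v) ∣ p ^ (f * (m - 1)) * (p ^ (f * (m - 1)) - 1)

/-- the situation after step (i) -/
structure Cx (Q : QuadraticForm F V) (p f m : ℕ) (K : Subgroup (V ≃ₗ[F] V)) (v : V) (y : V ≃ₗ[F] V) (r : ℕ)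
    (A : Subgroup (V ≃ₗ[F] V)) (W : Submodule F V) : Prop where
  h : D2 Q p f m K
  fa : Facts Q p f m K
  hr : r.Prime
  hord : orderOf (p : ZMod r) = f * (m - 1)
  hyr : orderOf y = r
  hv : Q v ≠ 0
  hy : y ∈ stb K v
  hodd : ∀ x : V, Q x ≠ 0 → 2 ∣ Nat.card (stb K x) → p = 2
  hA : A ≤ stb K v
  hAn : ∀ k ∈ stb K v, ∀ a ∈ A, k * a * k⁻¹ ∈ A
  hAc : Nat.card A = p ^ (f * (m - 1))
  hWQ : ∀ w ∈ W, Q w = 0
  hWd : finrank F W = m - 1
  hWv : ∀ w ∈ W, polar Q v w = 0
  hWy : ∀ w ∈ W, y w ∈ W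
  hWA : ∀ z, (∀ a ∈ A, a z = z) ↔ ∃ c : F, ∃ w ∈ W, z = c • v + w

namespace Cx

variable {Q : QuadraticForm F V} {p f m : ℕ} {K : Subgroup (V ≃ₗ[F] V)} {v : V} {y : V ≃ₗ[F] V} {r : ℕ}
    {A : Subgroup (V ≃ₗ[F] V)} {W : Submodule F V}

theorem n_pos (c : Cx Q p f m K v y r A W) : 0 < f * (m - 1) := by
  have h1 := c.h.hf
  have h2 := c.h.hm
  exact Nat.mul_pos (by omega) (by omega)

theorem W_polar (c : Cx Q p f m K v y r A W) {w w' : V} (hw : w ∈ W) (hw' : w' ∈ W) : polar Q w w' = 0 := by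
  rw [polar, c.hWQ _ (W.add_mem hw hw'), c.hWQ _ hw, c.hWQ _ hw']
  simp

theorem W_ne (c : Cx Q p f m K v y r A W) : ∃ w ∈ W, w ≠ 0 := by
  by_contra hcon
  push Not at hcon
  have h1 : W = ⊥ := (Submodule.eq_bot_iff W).2 hcon
  have h2 := c.hWd
  have h3 := c.h.hm
  rw [h1, finrank_bot] at h2
  omega

theorem v_notMem (c : Cx Q p f m K v y r A W) : v ∉ W := fun hvW => c.hv (c.hWQ v hvW)

/-- `Q` on the affine space `v + W` -/
theorem Q_eq (c : Cx Q p f m K v y r A W) {x : V} (hx : x - v ∈ W) : Q x = Q v := by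
  have h1 : x = v + (x - v) := by abel
  rw [h1, QuadraticMap.map_add Q, c.hWQ _ hx, c.hWv _ hx, add_zero, add_zero]

theorem polar_x (c : Cx Q p f m K v y r A W) {x w : V} (hx : x - v ∈ W) (hw : w ∈ W) : polar Q x w = 0 := by
  have h1 : x = v + (x - v) := by abel
  rw [h1, polar_add_left, c.hWv _ hw, c.W_polar hx hw, add_zero]

/-- an element of prime order `≠ p` of the stabiliser of `x ∈ v + W` fixes no `w ≠ 0` in `W` -/
theorem fix_zero (c : Cx Q p f m K v y r A W) {x w : V} (hx : x - v ∈ W) (hw : w ∈ W) {k : V ≃ₗ[F] V} (hk : k ∈ stb K x)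
    (ho : (orderOf k).Prime) (hop : orderOf k ≠ p) (hkw : k w = w) : w = 0 := by
  have hQx : Q x ≠ 0 := by
    rw [c.Q_eq hx]
    exact c.hv
  haveI : Finite V := Module.finite_of_finite F
  have ho2 : orderOf k ≠ 2 := by
    intro h2
    apply hop
    rw [h2]
    refine (c.hodd x hQx ?_).symm
    have h3 := orderOf_dvd_natCard (⟨k, hk⟩ : stb K x)
    rwa [← Subgroup.orderOf_coe, Subgroup.coe_mk, h2] at h3
  obtain ⟨e, g, he, hg, heg, hxs, hiff⟩ := c.fa.plane x hQx k hk ho hop ho2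
  exact plane_zero he hg heg hxs ((hiff w).1 hkw) hQx (c.hWQ w hw) (c.polar_x hx hw)

/-- the `p`-elements of the vector stabiliser lie in `A` -/
theorem mem_A (c : Cx Q p f m K v y r A W) {g : V ≃ₗ[F] V} (hg : g ∈ stb K v) {k : ℕ} (hk : g ^ (p ^ k) = 1) : g ∈ A := by
  haveI : Finite V := Module.finite_of_finite F
  have hp := c.h.hp
  haveI : (A.subgroupOf (stb K v)).Normal := ⟨fun a ha k => by
    rw [Subgroup.mem_subgroupOf] at ha ⊢
    exact c.hAn k k.2 a ha⟩
  set B := A.subgroupOf (stb K v) with hB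
  have hBc : Nat.card B = p ^ (f * (m - 1)) := by
    rw [← c.hAc]
    exact Nat.card_congr (Subgroup.subgroupOfEquivOfLe c.hA).toEquiv
  have hidx : B.index ∣ p ^ (f * (m - 1)) - 1 := by
    have h1 := B.card_mul_index
    have h2 := c.fa.card v c.hv
    rw [← h1, hBc] at h2
    exact (Nat.mul_dvd_mul_iff_left (pow_pos hp.pos _)).1 h2
  have hcop : Nat.Coprime (p ^ k) B.index := by
    apply Nat.Coprime.pow_left
    rw [Nat.Prime.coprime_iff_not_dvd hp]
    intro h3
    have h4 := h3.trans hidx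
    have h5 : p ∣ p ^ (f * (m - 1)) := dvd_pow_self p c.n_pos.ne'
    have h6 : 1 ≤ p ^ (f * (m - 1)) := pow_pos hp.pos _
    have h7 := (Nat.dvd_sub_iff_right h6 h5).1 h4
    exact hp.one_lt.ne' (Nat.dvd_one.1 h7)
  have h8 : ((⟨g, hg⟩ : stb K v) : stb K v ⧸ B) = 1 := by
    rw [← orderOf_eq_one_iff]
    apply Nat.eq_one_of_dvd_coprimes hcop
    · apply orderOf_dvd_of_pow_eq_one
      rw [← QuotientGroup.mk_pow, QuotientGroup.eq_one_iff]
      have : (⟨g, hg⟩ : stb K v) ^ p ^ k = 1 := Subtype.ext (by simpa using hk)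
      rw [this]
      exact B.one_mem
    · exact orderOf_dvd_natCard _
  exact (QuotientGroup.eq_one_iff (N := B) (⟨g, hg⟩ : stb K v)).1 h8

/-! ### the group `N` -/

/-- elements normalising `A` act on `C_V(A) = ⟨v⟩ + W` -/
theorem map_v (c : Cx Q p f m K v y r A W) {n : V ≃ₗ[F] V} (hn : ∀ a ∈ A, n⁻¹ * a * n ∈ A) :
    ∃ b : F, ∃ w ∈ W, n v = b • v + w := by
  rw [← c.hWA]
  intro a ha
  have h1 : (n⁻¹ * a * n) v = v := (c.hA (hn a ha)).2
  have h2 : n ((n⁻¹ * a * n) v) = a (n v) := by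
    change (n * (n⁻¹ * a * n)) v = (a * n) v
    congr 1
    group
  rw [← h2, h1]

theorem map_W (c : Cx Q p f m K v y r A W) {n : V ≃ₗ[F] V} (hnK : n ∈ K) (hn : ∀ a ∈ A, n⁻¹ * a * n ∈ A) {w : V} (hw : w ∈ W) :
    n w ∈ W := by
  have h1 : ∃ b : F, ∃ w' ∈ W, n w = b • v + w' := by
    rw [← c.hWA]
    intro a ha
    have h1 : (n⁻¹ * a * n) w = w := (c.hWA w).2 ⟨0, w, hw, by rw [zero_smul, zero_add]⟩ _ (hn a ha)
    have h2 : n ((n⁻¹ * a * n) w) = a (n w) := by
      change (n * (n⁻¹ * a * n)) w = (a * n) w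
      congr 1
      group
    rw [← h2, h1]
  obtain ⟨b, w', hw', hb⟩ := h1
  have h2 : Q (n w) = 0 := by rw [c.h.iso n hnK, c.hWQ w hw]
  rw [hb, QuadraticMap.map_add Q, QuadraticMap.map_smul, c.hWQ w' hw', polar_smul_left, c.hWv w' hw', smul_zero, add_zero,
    add_zero, smul_eq_mul] at h2
  have h3 : b = 0 := by
    rcases mul_eq_zero.1 h2 with h3 | h3
    · exact mul_self_eq_zero.1 h3
    · exact absurd h3 c.hv
  rw [hb, h3, zero_smul, zero_add]
  exact hw'

end Cx

/-- the group `N` of step (ii) -/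
def NN (K A : Subgroup (V ≃ₗ[F] V)) (W : Submodule F V) (v : V) : Subgroup (V ≃ₗ[F] V) where
  carrier := {n | n ∈ K ∧ (∀ a ∈ A, n * a * n⁻¹ ∈ A) ∧ (∀ a ∈ A, n⁻¹ * a * n ∈ A) ∧ (∀ w ∈ W, n w ∈ W) ∧ (∀ w ∈ W, n⁻¹ w ∈ W) ∧
    n v - v ∈ W}
  one_mem' := ⟨K.one_mem, fun a ha => by simpa using ha, fun a ha => by simpa using ha, fun w hw => hw, fun w hw => by
    rw [inv_one]
    exact hw, by
    change v - v ∈ W
    rw [sub_self]
    exact W.zero_mem⟩
  mul_mem' := by
    rintro a b ⟨ha1, ha2, ha3, ha4, ha5, ha6⟩ ⟨hb1, hb2, hb3, hb4, hb5, hb6⟩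
    refine ⟨K.mul_mem ha1 hb1, fun x hx => ?_, fun x hx => ?_, fun w hw => ha4 _ (hb4 _ hw), fun w hw => ?_, ?_⟩
    · have := ha2 _ (hb2 x hx)
      convert this using 1
      group
    · have := hb3 _ (ha3 x hx)
      convert this using 1
      group
    · rw [mul_inv_rev]
      exact hb5 _ (ha5 _ hw)
    · change a (b v) - v ∈ W
      have h1 : a (b v) - v = a (b v - v) + (a v - v) := by
        rw [map_sub]
        abel
      rw [h1]
      exact W.add_mem (ha4 _ hb6) ha6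
  inv_mem' := by
    rintro a ⟨ha1, ha2, ha3, ha4, ha5, ha6⟩
    refine ⟨K.inv_mem ha1, fun x hx => ?_, fun x hx => ?_, ha5, fun w hw => ?_, ?_⟩
    · rw [inv_inv]
      exact ha3 x hx
    · rw [inv_inv]
      exact ha2 x hx
    · rw [inv_inv]
      exact ha4 w hw
    · have h1 : a⁻¹ v - v = -(a⁻¹ (a v - v)) := by
        rw [map_sub]
        have : a⁻¹ (a v) = v := by
          change (a⁻¹ * a) v = v
          rw [inv_mul_cancel]
          rfl
        rw [this]
        abel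
      rw [h1]
      exact W.neg_mem (ha5 _ ha6)

theorem charP {F : Type*} [Field F] [Finite F] {p f : ℕ} (hp : p.Prime) (hF : Nat.card F = p ^ f) : CharP F p := by
  haveI := Fintype.ofFinite F
  obtain ⟨r, hr⟩ := CharP.exists F
  obtain ⟨n, hrp, hn⟩ := FiniteField.card F r
  have : r ∣ p ^ f := by
    rw [← hF, Nat.card_eq_fintype_card, hn]
    exact dvd_pow_self r n.pos.ne'
  have h1 : r = p := (Nat.prime_dvd_prime_iff_eq hrp hp).1 (hrp.dvd_of_dvd_pow this)
  rw [← h1]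
  exact hr

theorem finite_equiv (F : Type*) (V : Type*) [Field F] [Finite F] [AddCommGroup V] [Module F V] [FiniteDimensional F V] :
    Finite (V ≃ₗ[F] V) := by
  haveI : Finite V := Module.finite_of_finite F
  exact Finite.of_injective (fun e : V ≃ₗ[F] V => (e : V → V)) DFunLike.coe_injective

theorem inv_mul_mul_mem {G : Type*} [Group G] {A : Subgroup G} [Finite A] {n : G} (hn : ∀ a ∈ A, n * a * n⁻¹ ∈ A) :
    ∀ a ∈ A, n⁻¹ * a * n ∈ A := by
  intro a ha
  have hinj : Function.Injective (fun x : A => (⟨n * x * n⁻¹, hn x x.2⟩ : A)) := by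
    intro x x' hx
    have h1 := congrArg Subtype.val hx
    apply Subtype.ext
    simpa using h1
  obtain ⟨x, hx⟩ := Finite.injective_iff_surjective.1 hinj ⟨a, ha⟩
  have h1 : n * x * n⁻¹ = a := congrArg Subtype.val hx
  rw [← h1]
  have : n⁻¹ * (n * ↑x * n⁻¹) * n = x := by group
  rw [this]
  exact x.2

namespace Cx

variable {Q : QuadraticForm F V} {p f m : ℕ} {K : Subgroup (V ≃ₗ[F] V)} {v : V} {y : V ≃ₗ[F] V} {r : ℕ}
    {A : Subgroup (V ≃ₗ[F] V)} {W : Submodule F V}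

/-- membership in `N` -/
theorem mem_NN (c : Cx Q p f m K v y r A W) {n : V ≃ₗ[F] V} (hnK : n ∈ K) (hn : ∀ a ∈ A, n * a * n⁻¹ ∈ A) (hv : n v - v ∈ W) :
    n ∈ NN K A W v := by
  haveI := finite_equiv F V
  have hn' := inv_mul_mul_mem hn
  refine ⟨hnK, hn, hn', fun w hw => c.map_W hnK hn' hw, fun w hw => c.map_W (K.inv_mem hnK) (fun a ha => ?_) hw, hv⟩
  rw [inv_inv]
  exact hn a ha

theorem stb_le (c : Cx Q p f m K v y r A W) : stb K v ≤ NN K A W v := by
  intro k hk
  refine c.mem_NN hk.1 (c.hAn k hk) ?_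
  rw [hk.2, sub_self]
  exact W.zero_mem

theorem factorization_lt {p k : ℕ} (hp : p.Prime) (hk : 0 < k) : k.factorization p < k := by
  have h1 : p ^ k.factorization p ≤ k := Nat.le_of_dvd hk (Nat.ordProj_dvd k p)
  exact (Nat.lt_pow_self hp.one_lt).trans_le h1

/-- the normaliser of `A` grows: `N ≠ K1` -/
theorem exists_moving (c : Cx Q p f m K v y r A W) : ∃ n ∈ NN K A W v, n v ≠ v := by
  haveI := finite_equiv F V
  have hp := c.h.hp
  haveI : Fact p.Prime := ⟨hp⟩
  set n := f * (m - 1) with hn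
  -- `p ^ (n + 1)` divides `|K|`
  have hf := c.h.hf
  have hm := c.h.hm
  have hval : n + 1 ≤ (Nat.card K).factorization p := by
    have h1 := c.h.card_p
    have h2 : f * (2 * m - 2) = 2 * n := by
      rw [hn]
      have : 2 * m - 2 = 2 * (m - 1) := by omega
      rw [this]
      ring
    have h3 : 4 * f ≤ n := by
      rw [hn, mul_comm]
      exact Nat.mul_le_mul_left f (by omega)
    have h4 := factorization_lt hp (by omega : 0 < 4 * f)
    have h5 := factorization_lt hp (by omega : 0 < f)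
    rw [h2] at h1
    split_ifs at h1 <;> omega
  have hdvd : p ^ (n + 1) ∣ Nat.card K :=
    (pow_dvd_pow p hval).trans (Nat.ordProj_dvd _ p)
  have hAK : A ≤ K := fun a ha => (c.hA ha).1
  obtain ⟨B, hB⟩ : ∃ B : Subgroup K, B = A.subgroupOf K := ⟨_, rfl⟩
  have hBc : Nat.card B = p ^ n := by
    rw [← c.hAc, hB]
    exact Nat.card_congr (Subgroup.subgroupOfEquivOfLe hAK).toEquiv
  obtain ⟨P, hPc, hBP⟩ := Sylow.exists_subgroup_card_pow_succ hdvd hBc
  have hidx : (B.subgroupOf P).index = p := by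
    have h1 := (B.subgroupOf P).card_mul_index
    rw [Nat.card_congr (Subgroup.subgroupOfEquivOfLe hBP).toEquiv, hBc, hPc, pow_succ] at h1
    exact Nat.eq_of_mul_eq_mul_left (pow_pos hp.pos n) h1
  have hnor : (B.subgroupOf P).Normal := by
    apply Subgroup.normal_of_index_eq_minFac_card
    rw [hidx, hPc, hp.pow_minFac (Nat.succ_ne_zero n)]
  obtain ⟨a, haP, haB⟩ : ∃ a ∈ P, a ∉ B := by
    by_contra hcon
    push Not at hcon
    have h1 : P = B := le_antisymm hcon hBP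
    rw [h1, hBc] at hPc
    have h2 := (Nat.pow_right_injective hp.two_le) hPc
    omega
  have haA : (a : V ≃ₗ[F] V) ∉ A := by
    intro h1
    apply haB
    rw [hB, Subgroup.mem_subgroupOf]
    exact h1
  -- `a` normalises `A`
  have hnorm : ∀ x ∈ A, (a : V ≃ₗ[F] V) * x * (a : V ≃ₗ[F] V)⁻¹ ∈ A := by
    intro x hx
    have hxB : (⟨x, hAK hx⟩ : K) ∈ B := by
      rw [hB, Subgroup.mem_subgroupOf]
      exact hx
    have h1 := hnor.conj_mem ⟨⟨x, hAK hx⟩, hBP hxB⟩ (by rw [Subgroup.mem_subgroupOf]; exact hxB) ⟨a, haP⟩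
    rw [Subgroup.mem_subgroupOf] at h1
    have h2 : a * ⟨x, hAK hx⟩ * a⁻¹ ∈ B := h1
    rw [hB, Subgroup.mem_subgroupOf] at h2
    exact h2
  -- `a` is a `p`-element
  have hpow : (a : V ≃ₗ[F] V) ^ (p ^ (n + 1)) = 1 := by
    have h1 : (⟨a, haP⟩ : P) ^ (p ^ (n + 1)) = 1 := by
      rw [← hPc]
      exact pow_card_eq_one'
    have h2 : a ^ (p ^ (n + 1)) = 1 := congrArg Subtype.val h1
    exact congrArg Subtype.val h2
  -- `a v ∈ v + W`
  obtain ⟨b, w, hw, hb⟩ := c.map_v (inv_mul_mul_mem hnorm)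
  have hW : ∀ w ∈ W, (a : V ≃ₗ[F] V) w ∈ W := fun w hw => c.map_W a.2 (inv_mul_mul_mem hnorm) hw
  have hiter : ∀ j : ℕ, ((a : V ≃ₗ[F] V) ^ j) v - b ^ j • v ∈ W := by
    intro j
    induction j with
    | zero =>
      rw [pow_zero, pow_zero, one_smul]
      change v - v ∈ W
      rw [sub_self]
      exact W.zero_mem
    | succ j ih =>
      have h1 : ((a : V ≃ₗ[F] V) ^ (j + 1)) v - b ^ (j + 1) • v =
          (a : V ≃ₗ[F] V) (((a : V ≃ₗ[F] V) ^ j) v - b ^ j • v) + b ^ j • w := by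
        rw [pow_succ' (a : V ≃ₗ[F] V), map_sub, map_smul, hb, pow_succ]
        change (a : V ≃ₗ[F] V) (((a : V ≃ₗ[F] V) ^ j) v) - (b ^ j * b) • v = _
        module
      rw [h1]
      exact W.add_mem (hW _ ih) (W.smul_mem _ hw)
  have hb1 : b ^ (p ^ (n + 1)) = 1 := by
    have h1 := hiter (p ^ (n + 1))
    rw [hpow] at h1
    have h2 : (1 - b ^ (p ^ (n + 1))) • v ∈ W := by
      rw [sub_smul, one_smul]
      exact h1
    by_contra hne
    apply c.v_notMem
    have h3 := W.smul_mem (1 - b ^ (p ^ (n + 1)))⁻¹ h2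
    rwa [smul_smul, inv_mul_cancel₀ (sub_ne_zero.2 (Ne.symm hne)), one_smul] at h3
  haveI : CharP F p := charP hp c.h.hF
  have hb2 : b = 1 := by
    have h1 : (b - 1) ^ (p ^ (n + 1)) = 0 := by
      rw [sub_pow_char_pow, hb1, one_pow, sub_self]
    exact sub_eq_zero.1 (pow_eq_zero_iff (pow_pos hp.pos _).ne' |>.1 h1)
  refine ⟨a, c.mem_NN a.2 hnorm ?_, ?_⟩
  · rw [hb, hb2, one_smul, add_sub_cancel_left]
    exact hw
  · intro hav
    exact haA (c.mem_A ⟨a.2, hav⟩ hpow)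

end Cx

/-! ### the action on `v + W` -/

/-- the affine space `v + W` -/
abbrev Om (W : Submodule F V) (v : V) : Type v := {x : V // x - v ∈ W}

/-- the action of `N` on `v + W` -/
@[reducible] def actN (K A : Subgroup (V ≃ₗ[F] V)) (W : Submodule F V) (v : V) : MulAction (NN K A W v) (Om W v) where
  smul n x := ⟨n.1 x.1, by
    have h1 : n.1 x.1 - v = n.1 (x.1 - v) + (n.1 v - v) := by
      rw [map_sub]
      abel
    rw [h1]
    exact W.add_mem (n.2.2.2.2.1 _ x.2) n.2.2.2.2.2.2⟩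
  one_smul _ := Subtype.ext rfl
  mul_smul _ _ _ := Subtype.ext rfl

/-- the action of `N` on `v + W` as a homomorphism -/
def phi (K A : Subgroup (V ≃ₗ[F] V)) (W : Submodule F V) (v : V) : NN K A W v →* Equiv.Perm (Om W v) := by
  letI := actN K A W v
  exact MulAction.toPermHom _ _

omit [Finite F] [FiniteDimensional F V] in
theorem phi_apply {K A : Subgroup (V ≃ₗ[F] V)} {W : Submodule F V} {v : V} (n : NN K A W v) (x : Om W v) :
    (phi K A W v n x).1 = n.1 x.1 := rfl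

namespace Cx

variable {Q : QuadraticForm F V} {p f m : ℕ} {K : Subgroup (V ≃ₗ[F] V)} {v : V} {y : V ≃ₗ[F] V} {r : ℕ}
    {A : Subgroup (V ≃ₗ[F] V)} {W : Submodule F V}

theorem r_ne_p (c : Cx Q p f m K v y r A W) : r ≠ p := by
  rintro rfl
  haveI : Fact r.Prime := ⟨c.hr⟩
  have h1 := c.hord
  rw [ZMod.natCast_self, orderOf_eq_zero_iff'.2] at h1
  · exact c.n_pos.ne h1
  · intro n hn
    rw [zero_pow hn.ne']
    exact zero_ne_one

theorem card_Om (c : Cx Q p f m K v y r A W) : Nat.card (Om W v) = p ^ (f * (m - 1)) := by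
  have h1 : Nat.card (Om W v) = Nat.card W := by
    refine Nat.card_congr ⟨fun x => ⟨x.1 - v, x.2⟩, fun w => ⟨w.1 + v, by
      rw [add_sub_cancel_right]
      exact w.2⟩, fun x => ?_, fun w => ?_⟩
    · apply Subtype.ext
      exact sub_add_cancel _ _
    · apply Subtype.ext
      exact add_sub_cancel_right _ _
  rw [h1, Module.natCard_eq_pow_finrank (K := F), c.h.hF, c.hWd, ← pow_mul]

/-- the kernel of the action is `A` -/
theorem mem_ker (c : Cx Q p f m K v y r A W) {n : NN K A W v} : n ∈ (phi K A W v).ker ↔ (n : V ≃ₗ[F] V) ∈ A := by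
  haveI := finite_equiv F V
  have hp := c.h.hp
  rw [MonoidHom.mem_ker]
  constructor
  · intro hn
    have h1 : ∀ x : V, x - v ∈ W → (n : V ≃ₗ[F] V) x = x := by
      intro x hx
      have h2 := phi_apply n ⟨x, hx⟩
      rw [hn] at h2
      exact h2.symm
    have hv : (n : V ≃ₗ[F] V) v = v := h1 v (by rw [sub_self]; exact W.zero_mem)
    have hW : ∀ w ∈ W, (n : V ≃ₗ[F] V) w = w := by
      intro w hw
      have h2 := h1 (v + w) (by rw [add_sub_cancel_left]; exact hw)
      rw [map_add, hv] at h2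
      exact add_left_cancel h2
    have hst : (n : V ≃ₗ[F] V) ∈ stb K v := ⟨n.2.1, hv⟩
    -- `n` is a `p`-element
    have hord : orderOf (n : V ≃ₗ[F] V) = p ^ (orderOf (n : V ≃ₗ[F] V)).primeFactorsList.length := by
      apply Nat.eq_prime_pow_of_unique_prime_dvd (orderOf_pos _).ne'
      intro d hd hdvd
      by_contra hdp
      have hordd : orderOf ((n : V ≃ₗ[F] V) ^ (orderOf (n : V ≃ₗ[F] V) / d)) = d := by
        rw [orderOf_pow_of_dvd (Nat.div_pos (Nat.le_of_dvd (orderOf_pos _) hdvd) hd.pos).ne' (Nat.div_dvd_of_dvd hdvd),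
          Nat.div_div_self hdvd (orderOf_pos _).ne']
      have hmem : (n : V ≃ₗ[F] V) ^ (orderOf (n : V ≃ₗ[F] V) / d) ∈ stb K v := (stb K v).pow_mem hst _
      obtain ⟨w, hw, hw0⟩ := c.W_ne
      apply hw0
      refine c.fix_zero (by rw [sub_self]; exact W.zero_mem) hw hmem (by rw [hordd]; exact hd) (by rw [hordd]; exact hdp) ?_
      have hpow : ∀ j : ℕ, ((n : V ≃ₗ[F] V) ^ j) w = w := by
        intro j
        induction j with
        | zero => rfl
        | succ j ih =>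
          rw [pow_succ]
          change ((n : V ≃ₗ[F] V) ^ j) ((n : V ≃ₗ[F] V) w) = w
          rw [hW w hw, ih]
      exact hpow _
    apply c.mem_A hst (k := (orderOf (n : V ≃ₗ[F] V)).primeFactorsList.length)
    rw [← hord]
    exact pow_orderOf_eq_one _
  · intro hn
    ext x
    rw [phi_apply]
    change (n : V ≃ₗ[F] V) x.1 = x.1
    have h1 : ∀ z : V, (∃ b : F, ∃ w ∈ W, z = b • v + w) → (n : V ≃ₗ[F] V) z = z := fun z hz => (c.hWA z).2 hz _ hn
    refine h1 _ ⟨1, x.1 - v, x.2, ?_⟩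
    rw [one_smul]
    abel

theorem card_ker (c : Cx Q p f m K v y r A W) : Nat.card (phi K A W v).ker = p ^ (f * (m - 1)) := by
  rw [← c.hAc]
  refine Nat.card_congr ⟨fun n => ⟨n.1.1, c.mem_ker.1 n.2⟩, fun a => ⟨⟨a.1, c.stb_le (c.hA a.2)⟩, c.mem_ker.2 a.2⟩, fun n => ?_,
    fun a => ?_⟩
  · rfl
  · rfl

theorem card_comap {G H : Type*} [Group G] [Finite G] [Group H] (φ : G →* H) (S : Subgroup φ.range) :
    Nat.card (S.comap φ.rangeRestrict) = Nat.card S * Nat.card φ.ker := by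
  haveI : Finite φ.range := Finite.of_surjective _ φ.rangeRestrict_surjective
  have h1 := (S.comap φ.rangeRestrict).card_mul_index
  rw [Subgroup.index_comap_of_surjective _ φ.rangeRestrict_surjective] at h1
  have h2 := S.card_mul_index
  have h3 : Nat.card φ.range * Nat.card φ.ker = Nat.card G := by
    have h4 := φ.ker.card_mul_index
    rw [Subgroup.index_ker] at h4
    rw [mul_comm]
    exact h4
  rw [← h3, ← h2] at h1
  have h5 : 0 < S.index := Nat.pos_of_ne_zero Subgroup.index_ne_zero_of_finite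
  apply Nat.eq_of_mul_eq_mul_right h5
  rw [h1]
  ring

/-- the stabiliser of a point in the image of `N` -/
theorem card_stab_dvd (c : Cx Q p f m K v y r A W) (x : Om W v) :
    Nat.card (MulAction.stabilizer (phi K A W v).range x) * p ^ (f * (m - 1)) ∣ Nat.card (stb K x.1) := by
  haveI := finite_equiv F V
  rw [← c.card_ker, ← card_comap]
  have h1 : ∀ n : (MulAction.stabilizer (phi K A W v).range x).comap (phi K A W v).rangeRestrict, (n : V ≃ₗ[F] V) ∈ stb K x.1 := by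
    intro n
    refine ⟨n.1.2.1, ?_⟩
    have h2 : (phi K A W v).rangeRestrict n.1 • x = x := n.2
    exact congrArg Subtype.val h2
  let g : (MulAction.stabilizer (phi K A W v).range x).comap (phi K A W v).rangeRestrict →* stb K x.1 :=
    { toFun := fun n => ⟨n.1.1, h1 n⟩
      map_one' := rfl
      map_mul' := fun _ _ => rfl }
  apply Subgroup.card_dvd_of_injective g
  intro n n' hn
  have h2 : (n.1.1 : V ≃ₗ[F] V) = n'.1.1 := congrArg (fun z : stb K x.1 => (z : V ≃ₗ[F] V)) hn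
  exact Subtype.ext (Subtype.ext h2)

theorem not_dvd_stab (c : Cx Q p f m K v y r A W) (x : Om W v) :
    ¬ p ∣ Nat.card (MulAction.stabilizer (phi K A W v).range x) := by
  have hp := c.h.hp
  intro hdvd
  have hQx : Q x.1 ≠ 0 := by
    rw [c.Q_eq x.2]
    exact c.hv
  have h1 := (c.card_stab_dvd x).trans (c.fa.card x.1 hQx)
  rw [mul_comm] at h1
  have h2 := (Nat.mul_dvd_mul_iff_left (pow_pos hp.pos _)).1 h1
  have h4 := hdvd.trans h2
  have h5 : p ∣ p ^ (f * (m - 1)) := dvd_pow_self p c.n_pos.ne'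
  have h6 : 1 ≤ p ^ (f * (m - 1)) := pow_pos hp.pos _
  have h7 := (Nat.dvd_sub_iff_right h6 h5).1 h4
  exact hp.one_lt.ne' (Nat.dvd_one.1 h7)

theorem eq_of_fix (c : Cx Q p f m K v y r A W) {s : ℕ} (hs : s.Prime) (hsp : s ≠ p) (g : (phi K A W v).range)
    (hg : orderOf g = s) (x x' : Om W v) (hx : g • x = x) (hx' : g • x' = x') : x = x' := by
  haveI := finite_equiv F V
  have hp := c.h.hp
  obtain ⟨g0, hg0⟩ := g.2
  have hgs : g ^ s = 1 := by rw [← hg]; exact pow_orderOf_eq_one g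
  have h1 : g0 ^ s ∈ (phi K A W v).ker := by
    rw [MonoidHom.mem_ker, map_pow, hg0]
    exact congrArg Subtype.val hgs
  have h2 : (g0 ^ s) ^ (p ^ (f * (m - 1))) = 1 := by
    have h3 : (⟨g0 ^ s, h1⟩ : (phi K A W v).ker) ^ (p ^ (f * (m - 1))) = 1 := by
      rw [← c.card_ker]
      exact pow_card_eq_one'
    exact congrArg Subtype.val h3
  have h3 : g0 ^ (p ^ (f * (m - 1))) ≠ 1 := by
    intro h4
    have h5 : g ^ (p ^ (f * (m - 1))) = 1 := by
      apply Subtype.ext
      change (g : Equiv.Perm (Om W v)) ^ _ = 1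
      rw [← hg0, ← map_pow, h4, map_one]
    have h6 := orderOf_dvd_of_pow_eq_one h5
    rw [hg] at h6
    exact hsp ((Nat.prime_dvd_prime_iff_eq hs hp).1 (hs.dvd_of_dvd_pow h6))
  haveI : Fact s.Prime := ⟨hs⟩
  have h4 : orderOf (g0 ^ (p ^ (f * (m - 1)))) = s := by
    apply orderOf_eq_prime _ h3
    rw [← pow_mul, mul_comm, pow_mul]
    exact h2
  have h5 : orderOf ((g0 : V ≃ₗ[F] V) ^ (p ^ (f * (m - 1)))) = s := by
    rw [← h4, ← Subgroup.orderOf_coe]
    rfl
  have hfx : ∀ z : Om W v, g • z = z → ∀ j : ℕ, ((g0 : V ≃ₗ[F] V) ^ j) z.1 = z.1 := by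
    intro z hz j
    have h6 : (g0 : V ≃ₗ[F] V) z.1 = z.1 := by
      rw [← phi_apply, hg0]
      exact congrArg Subtype.val hz
    induction j with
    | zero => rfl
    | succ j ih =>
      rw [pow_succ]
      change ((g0 : V ≃ₗ[F] V) ^ j) ((g0 : V ≃ₗ[F] V) z.1) = z.1
      rw [h6, ih]
  have hsub : x'.1 - x.1 ∈ W := by
    have h6 := W.sub_mem x'.2 x.2
    rwa [sub_sub_sub_cancel_right] at h6
  have h7 := c.fix_zero x.2 hsub (k := (g0 : V ≃ₗ[F] V) ^ (p ^ (f * (m - 1)))) ⟨K.pow_mem g0.2.1 _, hfx x hx _⟩ (by rw [h5]; exact hs)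
    (by rw [h5]; exact hsp) (by rw [map_sub, hfx x hx, hfx x' hx'])
  exact Subtype.ext (sub_eq_zero.1 h7).symm

/-- **(ii), (iii)** -/
theorem reg (c : Cx Q p f m K v y r A W)
    (hFT : ∀ (G : Type v) [Group G] [Finite G], Odd (Nat.card G) → Group.IsSolvable G) :
    ∃ M : Subgroup (V ≃ₗ[F] V), M ≤ K ∧ Nat.card M = p ^ (2 * (f * (m - 1))) ∧ A ≤ M ∧ (∀ g ∈ M, y * g * y⁻¹ ∈ M) ∧
      (∀ g ∈ M, ∀ a ∈ A, g * a * g⁻¹ ∈ A) ∧ (∀ g ∈ M, g v - v ∈ W) ∧ (∀ g ∈ M, g v = v → g ∈ A) ∧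
      (∀ g ∈ M, y * g = g * y → g ∈ A) := by
  haveI := finite_equiv F V
  haveI : Finite V := Module.finite_of_finite F
  have hp := c.h.hp
  have hr := c.hr
  haveI : Fact p.Prime := ⟨hp⟩
  haveI : Fact r.Prime := ⟨hr⟩
  have hvv : v - v ∈ W := by rw [sub_self]; exact W.zero_mem
  let x0 : Om W v := ⟨v, hvv⟩
  let yN : NN K A W v := ⟨y, c.stb_le c.hy⟩
  let φ := phi K A W v
  let yG : φ.range := φ.rangeRestrict yN
  haveI : Finite φ.range := Finite.of_surjective _ φ.rangeRestrict_surjective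
  have hyN : yN ^ r = 1 := by
    apply Subtype.ext
    change y ^ r = 1
    rw [← c.hyr]
    exact pow_orderOf_eq_one y
  have hyr : yG ^ r = 1 := by
    change (φ.rangeRestrict yN) ^ r = 1
    rw [← map_pow, hyN, map_one]
  have hyfix : yG • x0 = x0 := Subtype.ext c.hy.2
  have hyo : orderOf y ≠ p := by
    rw [c.hyr]
    exact c.r_ne_p
  have hy : ∀ x : Om W v, yG • x = x ↔ x = x0 := by
    intro x
    constructor
    · intro hx
      have h1 : y x.1 = x.1 := congrArg Subtype.val hx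
      have hsub : x.1 - v ∈ W := x.2
      have h2 := c.fix_zero hvv hsub c.hy (by rw [c.hyr]; exact hr) hyo (by rw [map_sub, h1, c.hy.2])
      exact Subtype.ext (sub_eq_zero.1 h2)
    · rintro rfl
      exact hyfix
  have hne : MulAction.stabilizer φ.range x0 ≠ ⊤ := by
    obtain ⟨n, hn, hnv⟩ := c.exists_moving
    intro htop
    have h1 : φ.rangeRestrict ⟨n, hn⟩ ∈ MulAction.stabilizer φ.range x0 := by rw [htop]; exact Subgroup.mem_top _
    apply hnv
    have h2 : φ.rangeRestrict ⟨n, hn⟩ • x0 = x0 := h1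
    exact congrArg Subtype.val h2
  have hne' : MulAction.stabilizer φ.range x0 ≠ ⊥ := by
    intro hbot
    have h1 : yG ∈ MulAction.stabilizer φ.range x0 := hyfix
    rw [hbot, Subgroup.mem_bot] at h1
    obtain ⟨w, hw, hw0⟩ := c.W_ne
    have h2 := (hy ⟨v + w, by rw [add_sub_cancel_left]; exact hw⟩).1 (by rw [h1, one_smul])
    have h3 : v + w = v := congrArg Subtype.val h2
    exact hw0 (add_eq_left.1 h3)
  have hst := c.not_dvd_stab
  have hodd : Odd (Nat.card (MulAction.stabilizer φ.range x0)) := by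
    rw [← Nat.not_even_iff_odd, even_iff_two_dvd]
    intro h2
    have h3 : p = 2 := c.hodd v c.hv (h2.trans ((Dvd.intro _ rfl).trans (c.card_stab_dvd x0)))
    apply hst x0
    rw [h3]
    exact h2
  have hfrob := frob_of_action (p := p) x0 hne hne' (hst x0) hodd fun s hs hsp _ g hg x x' hx hx' =>
    c.eq_of_fix hs hsp g hg x x' hx hx'
  have hsol : Group.IsSolvable φ.range := solvable_of_frob _ hfrob (hFT _ hodd)
  obtain ⟨M, hMn, hMc, hMt, hMs, hMy⟩ := exists_regular (Γ := φ.range) (Ω := Om W v) (r := r) hp c.n_pos c.card_Om hsol hst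
    (fun s hs hsp g hg x x' hx hx' => c.eq_of_fix hs hsp g hg x x' hx hx') (v := x0) hne hy hr hyr c.hord
  have hmemM : ∀ g : V ≃ₗ[F] V, g ∈ (M.comap φ.rangeRestrict).map (NN K A W v).subtype ↔
      ∃ hg : g ∈ NN K A W v, φ.rangeRestrict ⟨g, hg⟩ ∈ M := by
    intro g
    constructor
    · rintro ⟨n, hn, rfl⟩
      exact ⟨n.2, hn⟩
    · rintro ⟨hg, h1⟩
      exact ⟨⟨g, hg⟩, h1, rfl⟩
  have hker : ∀ n : NN K A W v, φ.rangeRestrict n = 1 → (n : V ≃ₗ[F] V) ∈ A := by
    intro n hn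
    apply c.mem_ker.1
    rw [MonoidHom.mem_ker]
    exact congrArg Subtype.val hn
  refine ⟨(M.comap φ.rangeRestrict).map (NN K A W v).subtype, ?_, ?_, ?_, ?_, ?_, ?_, ?_, ?_⟩
  · intro g hg
    obtain ⟨h1, -⟩ := (hmemM g).1 hg
    exact h1.1
  · rw [Subgroup.card_map_of_injective (NN K A W v).subtype_injective, card_comap, hMc, c.card_ker, ← pow_add]
    congr 1
    ring
  · intro a ha
    rw [hmemM]
    refine ⟨c.stb_le (c.hA ha), ?_⟩
    have h1 : φ.rangeRestrict ⟨a, c.stb_le (c.hA ha)⟩ = 1 := Subtype.ext (MonoidHom.mem_ker.1 (c.mem_ker.2 ha))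
    rw [h1]
    exact M.one_mem
  · intro g hg
    rw [hmemM] at hg ⊢
    obtain ⟨h1, h2⟩ := hg
    refine ⟨(yN * ⟨g, h1⟩ * yN⁻¹).2, ?_⟩
    have h3 := hMn.conj_mem _ h2 (φ.rangeRestrict yN)
    rw [← map_inv, ← map_mul, ← map_mul] at h3
    exact h3
  · intro g hg a ha
    obtain ⟨h1, -⟩ := (hmemM g).1 hg
    exact h1.2.1 a ha
  · intro g hg
    obtain ⟨h1, -⟩ := (hmemM g).1 hg
    exact h1.2.2.2.2.2
  · intro g hg hgv
    obtain ⟨h1, h2⟩ := (hmemM g).1 hg
    refine hker ⟨g, h1⟩ (hMs _ h2 x0 (Subtype.ext hgv))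
  · intro g hg hgy
    obtain ⟨h1, h2⟩ := (hmemM g).1 hg
    refine hker ⟨g, h1⟩ (hMy _ h2 ?_)
    change φ.rangeRestrict yN * _ = _ * φ.rangeRestrict yN
    rw [← map_mul, ← map_mul]
    congr 1
    exact Subtype.ext hgy

end Cx

end Cfsg.Agent.H454.Rg
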