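import Cfsg.Agent.H454.Rg.CommA
import Cfsg.Agent.H454.Rg.Common
import Cfsg.Agent.H72.D2.Vs

/-!
# S3691, F-D+2, common part 11.3: step (iv) (helper454)
-/

set_option autoImplicit false
set_option linter.style.haveILetI false

namespace Cfsg.Agent.H454.Rg

open QuadraticMap Module Cfsg.Agent.H386.Rg

universe u v

variable {F : Type u} {V : Type v} [Field F] [AddCommGroup V] [Module F V]

theorem polar_map {Q : QuadraticForm F V} {k : V ≃ₗ[F] V} (hk : ∀ v, Q (k v) = Q v) (x z : V) :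
    polar Q (k x) (k z) = polar Q x z := by
  rw [polar, polar, ← map_add, hk, hk, hk]

variable [Finite F] [FiniteDimensional F V]

/-- invariant subspaces without fixed vectors: the counting -/
theorem dvd_finrank {p f m r : ℕ} (hF : Nat.card F = p ^ f) (hr : r.Prime) (hf : 0 < f)
    (hord : orderOf (p : ZMod r) = f * (m - 1)) {y : V ≃ₗ[F] V} (hyr : y ^ r = 1) {U : Submodule F V} (hU : ∀ u ∈ U, y u ∈ U)
    (h0 : ∀ u ∈ U, y u = u → u = 0) : m - 1 ∣ finrank F U := by
  haveI : Finite V := Module.finite_of_finite F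
  haveI : Fact r.Prime := ⟨hr⟩
  haveI := finite_equiv F V
  have hpow : ∀ (j : ℕ), ∀ u ∈ U, (y ^ j) u ∈ U := by
    intro j
    induction j with
    | zero => exact fun u hu => hu
    | succ j ih =>
      intro u hu
      rw [pow_succ]
      exact ih _ (hU u hu)
  have hz : ∀ k : Subgroup.zpowers y, ∀ u ∈ U, (k : V ≃ₗ[F] V) u ∈ U := by
    rintro ⟨k, hk⟩ u hu
    obtain ⟨j, rfl⟩ := (Submonoid.mem_powers_iff _ _).1 ((mem_powers_iff_mem_zpowers).2 hk)
    exact hpow j u hu
  letI : MulAction (Subgroup.zpowers y) U :=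
    { smul := fun k u => ⟨(k : V ≃ₗ[F] V) u.1, hz k u.1 u.2⟩
      one_smul := fun _ => rfl
      mul_smul := fun _ _ _ => rfl }
  have hP : IsPGroup r (Subgroup.zpowers y) := by
    have h1 : orderOf y ∣ r := orderOf_dvd_of_pow_eq_one hyr
    rcases (Nat.dvd_prime hr).1 h1 with h2 | h2
    · apply IsPGroup.of_card (n := 0)
      rw [Nat.card_zpowers, h2, pow_zero]
    · apply IsPGroup.of_card (n := 1)
      rw [Nat.card_zpowers, h2, pow_one]
  have h1 := hP.card_modEq_card_fixedPoints U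
  have h2 : Nat.card (MulAction.fixedPoints (Subgroup.zpowers y) U) = 1 := by
    rw [Nat.card_eq_one_iff_exists]
    refine ⟨⟨0, fun k => Subtype.ext (map_zero (k : V ≃ₗ[F] V))⟩, ?_⟩
    rintro ⟨u, hu⟩
    have h3 := congrArg Subtype.val (hu ⟨y, Subgroup.mem_zpowers y⟩)
    exact Subtype.ext (Subtype.ext (h0 u.1 u.2 h3))
  rw [h2, Module.natCard_eq_pow_finrank (K := F), hF, ← pow_mul] at h1
  have h3 := (ZMod.natCast_eq_natCast_iff _ _ _).2 h1
  push_cast at h3
  have h4 := orderOf_dvd_of_pow_eq_one h3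
  rw [hord] at h4
  exact Nat.dvd_of_mul_dvd_mul_left hf h4

namespace Cx

variable {Q : QuadraticForm F V} {p f m : ℕ} {K : Subgroup (V ≃ₗ[F] V)} {v : V} {y : V ≃ₗ[F] V} {r : ℕ}
    {A : Subgroup (V ≃ₗ[F] V)} {W : Submodule F V}

theorem y_pow (c : Cx Q p f m K v y r A W) : y ^ r = 1 := by
  rw [← c.hyr]
  exact pow_orderOf_eq_one y

theorem y_free (c : Cx Q p f m K v y r A W) {w : V} (hw : w ∈ W) (hyw : y w = w) : w = 0 :=
  c.fix_zero (by rw [sub_self]; exact W.zero_mem) hw c.hy (by rw [c.hyr]; exact c.hr) (by rw [c.hyr]; exact c.r_ne_p) hyw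

theorem exists_sub (c : Cx Q p f m K v y r A W) {w : V} (hw : w ∈ W) : ∃ w' ∈ W, y w' - w' = w := by
  haveI : Finite V := Module.finite_of_finite F
  have hinj : Function.Injective (fun x : W => (⟨y x.1 - x.1, W.sub_mem (c.hWy _ x.2) x.2⟩ : W)) := by
    intro x x' hx
    have h1 : y x.1 - x.1 = y x'.1 - x'.1 := congrArg Subtype.val hx
    have h2 : y (x.1 - x'.1) = x.1 - x'.1 := by
      rw [map_sub, sub_eq_sub_iff_sub_eq_sub]
      exact h1
    have h3 := c.y_free (W.sub_mem x.2 x'.2) h2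
    exact Subtype.ext (sub_eq_zero.1 h3)
  obtain ⟨x, hx⟩ := Finite.injective_iff_surjective.1 hinj ⟨w, hw⟩
  exact ⟨x.1, x.2, congrArg Subtype.val hx⟩

theorem polar_fix (c : Cx Q p f m K v y r A W) {z w : V} (hz : y z = z) (hw : w ∈ W) : polar Q z w = 0 := by
  obtain ⟨w', hw', rfl⟩ := c.exists_sub hw
  have h1 := polar_map (c.h.iso y c.hy.1) z w'
  rw [hz] at h1
  rw [sub_eq_add_neg, polar_add_right, polar_neg_right, h1, add_neg_cancel]

/-- `W^⊥ = C + W` -/
theorem perp (c : Cx Q p f m K v y r A W) {e g : V} (he : Q e = 0) (hg : Q g = 0) (heg : polar Q e g = 1)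
    (hC : ∀ z : V, y z = z ↔ z ∈ Submodule.span F {e, g}) {z : V} (hz : ∀ w ∈ W, polar Q z w = 0) :
    ∃ a b : F, ∃ w ∈ W, z = a • e + b • g + w := by
  have hnd : LinearMap.BilinForm.Nondegenerate Q.polarBilin := by
    refine ⟨fun x hx => c.h.nd x hx, fun x hx => c.h.nd x fun w => ?_⟩
    rw [polar_comm]
    exact hx w
  have h1 := LinearMap.BilinForm.finrank_orthogonal hnd W
  have hm := c.h.hm
  rw [c.h.dim, c.hWd] at h1
  have hee : polar Q e e = 0 := by rw [polar_self, he, smul_zero]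
  have hgg : polar Q g g = 0 := by rw [polar_self, hg, smul_zero]
  have hge : polar Q g e = 1 := by rw [polar_comm, heg]
  -- subtract the component in `C`
  have hes : y e = e := (hC e).2 (Submodule.subset_span (by simp))
  have hgs : y g = g := (hC g).2 (Submodule.subset_span (by simp))
  let T : F × F × W →ₗ[F] V :=
    LinearMap.coprod (LinearMap.toSpanSingleton F V e) (LinearMap.coprod (LinearMap.toSpanSingleton F V g) W.subtype)
  have hT : ∀ a b : F, ∀ w : W, T (a, b, w) = a • e + (b • g + w) := fun a b w => rfl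
  have hinj : Function.Injective T := by
    rw [← LinearMap.ker_eq_bot, LinearMap.ker_eq_bot']
    rintro ⟨a, b, w⟩ h0
    rw [hT] at h0
    have ha : b = 0 := by
      have h2 : polar Q e (a • e + (b • g + (w : V))) = b := by
        rw [polar_add_right, polar_add_right, polar_smul_right, polar_smul_right, hee, heg, c.polar_fix hes w.2]
        simp
      rw [h0, polar_zero_right] at h2
      exact h2.symm
    have hb : a = 0 := by
      have h2 : polar Q g (a • e + (b • g + (w : V))) = a := by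
        rw [polar_add_right, polar_add_right, polar_smul_right, polar_smul_right, hgg, hge, c.polar_fix hgs w.2]
        simp
      rw [h0, polar_zero_right] at h2
      exact h2.symm
    subst ha hb
    have h3 : (w : V) = 0 := by simpa using h0
    have h4 : w = 0 := Subtype.ext h3
    rw [h4]
    rfl
  have hle : LinearMap.range T ≤ LinearMap.BilinForm.orthogonal Q.polarBilin W := by
    rintro _ ⟨⟨a, b, w⟩, rfl⟩
    rw [LinearMap.BilinForm.mem_orthogonal_iff]
    intro w' hw'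
    rw [polarBilin_apply_apply, hT, polar_add_right, polar_add_right, polar_smul_right, polar_smul_right, polar_comm Q w' e,
      polar_comm Q w' g, c.polar_fix hes hw', c.polar_fix hgs hw', c.W_polar hw' w.2]
    simp
  have heq : LinearMap.range T = LinearMap.BilinForm.orthogonal Q.polarBilin W := by
    apply Submodule.eq_of_le_of_finrank_eq hle
    rw [LinearMap.finrank_range_of_inj hinj, h1, finrank_prod, finrank_prod, finrank_self, c.hWd]
    omega
  have hz' : z ∈ LinearMap.BilinForm.orthogonal Q.polarBilin W := by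
    rw [LinearMap.BilinForm.mem_orthogonal_iff]
    intro w hw
    rw [polarBilin_apply_apply, polar_comm]
    exact hz w hw
  rw [← heq] at hz'
  obtain ⟨⟨a, b, w⟩, rfl⟩ := hz'
  exact ⟨a, b, w, w.2, by rw [hT, add_assoc]⟩

/-- `y` is irreducible on `W` -/
theorem irr (c : Cx Q p f m K v y r A W) {U : Submodule F V} (hUW : U ≤ W) (hU : ∀ u ∈ U, y u ∈ U) (hU0 : ∃ u ∈ U, u ≠ 0) : U = W := by
  have h1 := dvd_finrank c.h.hF c.hr c.h.hf c.hord c.y_pow hU fun u hu hyu => c.y_free (hUW hu) hyu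
  have h2 : 0 < finrank F U := by
    rw [finrank_pos_iff_exists_ne_zero]
    obtain ⟨u, hu, hu0⟩ := hU0
    exact ⟨⟨u, hu⟩, fun h => hu0 (congrArg Subtype.val h)⟩
  apply Submodule.eq_of_le_of_finrank_le hUW
  rw [c.hWd]
  exact Nat.le_of_dvd h2 h1

/-- the data of step (iv) -/
structure MM (p f m : ℕ) (K : Subgroup (V ≃ₗ[F] V)) (v : V) (y : V ≃ₗ[F] V) (A : Subgroup (V ≃ₗ[F] V)) (W : Submodule F V)
    (M : Subgroup (V ≃ₗ[F] V)) : Prop where
  hMK : M ≤ K
  hMc : Nat.card M = p ^ (2 * (f * (m - 1)))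
  hAM : A ≤ M
  hyM : ∀ g ∈ M, y * g * y⁻¹ ∈ M
  hMA : ∀ g ∈ M, ∀ a ∈ A, g * a * g⁻¹ ∈ A
  hcent : ∀ g ∈ M, y * g = g * y → g ∈ A

variable {M : Subgroup (V ≃ₗ[F] V)}

theorem M_W (c : Cx Q p f m K v y r A W) (d : MM p f m K v y A W M) {g : V ≃ₗ[F] V} (hg : g ∈ M) {w : V} (hw : w ∈ W) : g w ∈ W := by
  haveI := finite_equiv F V
  exact c.map_W (d.hMK hg) (inv_mul_mul_mem (d.hMA g hg)) hw

/-- `M` is trivial on `W` -/
theorem M_triv (c : Cx Q p f m K v y r A W) (d : MM p f m K v y A W M) : ∀ g ∈ M, ∀ w ∈ W, g w = w := by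
  haveI := finite_equiv F V
  haveI : Finite V := Module.finite_of_finite F
  haveI : Fact p.Prime := ⟨c.h.hp⟩
  let U : Submodule F V :=
    { carrier := {w | w ∈ W ∧ ∀ g ∈ M, g w = w}
      zero_mem' := ⟨W.zero_mem, fun g _ => map_zero g⟩
      add_mem' := fun {a b} ha hb => ⟨W.add_mem ha.1 hb.1, fun g hg => by rw [map_add, ha.2 g hg, hb.2 g hg]⟩
      smul_mem' := fun t a ha => ⟨W.smul_mem t ha.1, fun g hg => by rw [map_smul, ha.2 g hg]⟩ }
  have hU : U = W := by
    apply c.irr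
    · exact fun w hw => hw.1
    · intro w hw
      refine ⟨c.hWy w hw.1, fun g hg => ?_⟩
      have h1 := inv_mul_mul_mem d.hyM g hg
      have h2 : (y⁻¹ * g * y) w = w := hw.2 _ h1
      have h3 : y ((y⁻¹ * g * y) w) = g (y w) := by
        change (y * (y⁻¹ * g * y)) w = (g * y) w
        congr 1
        group
      rw [← h3, h2]
    · letI : MulAction M W :=
        { smul := fun g w => ⟨(g : V ≃ₗ[F] V) w.1, c.M_W d g.2 w.2⟩
          one_smul := fun _ => rfl
          mul_smul := fun _ _ _ => rfl }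
      have hP : IsPGroup p M := IsPGroup.of_card d.hMc
      have h1 : p ∣ Nat.card W := by
        rw [Module.natCard_eq_pow_finrank (K := F), c.h.hF, c.hWd, ← pow_mul]
        exact dvd_pow_self p c.n_pos.ne'
      have h2 : (0 : W) ∈ MulAction.fixedPoints M W := fun g => Subtype.ext (map_zero (g : V ≃ₗ[F] V))
      obtain ⟨b, hb, hb0⟩ := hP.exists_fixed_point_of_prime_dvd_card_of_fixed_point W h1 h2
      exact ⟨b.1, ⟨b.2, fun g hg => congrArg Subtype.val (hb ⟨g, hg⟩)⟩, fun h => hb0 (Subtype.ext h.symm)⟩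
  intro g hg w hw
  rw [← hU] at hw
  exact hw.2 g hg

/-- elements fixing `C` and `W` pointwise are trivial -/
theorem eq_one (c : Cx Q p f m K v y r A W) (hm' : Odd (m - 1)) {e g : V} (he : Q e = 0) (hg : Q g = 0) (heg : polar Q e g = 1)
    (hC : ∀ z : V, y z = z ↔ z ∈ Submodule.span F {e, g}) {k : V ≃ₗ[F] V} (hk : k ∈ K) (hkW : ∀ w ∈ W, k w = w)
    (hke : k e = e) (hkg : k g = g) : k = 1 := by
  refine c.h.alt_odd hm' c.hWQ c.hWd hk fun z hz => ?_
  obtain ⟨a, b, w, hw, rfl⟩ := c.perp he hg heg hC hz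
  rw [map_add, map_add, map_smul, map_smul, hke, hkg, hkW w hw]

/-- `C_A(y) = 1` -/
theorem cent_A (c : Cx Q p f m K v y r A W) (hm' : Odd (m - 1)) {e g : V} (he : Q e = 0) (hg : Q g = 0) (heg : polar Q e g = 1)
    (hC : ∀ z : V, y z = z ↔ z ∈ Submodule.span F {e, g}) : ∀ a ∈ A, y * a = a * y → a = 1 := by
  haveI := finite_equiv F V
  haveI : Finite V := Module.finite_of_finite F
  haveI : Fact p.Prime := ⟨c.h.hp⟩
  haveI : Fact r.Prime := ⟨c.hr⟩
  have hp := c.h.hp
  have hm := c.h.hm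
  have hf := c.h.hf
  -- `|A| > 2`
  have hbig : 2 < Nat.card A := by
    rw [c.hAc]
    have h1 : 2 ≤ f * (m - 1) := by
      calc 2 ≤ 1 * (m - 1) := by omega
        _ ≤ f * (m - 1) := Nat.mul_le_mul_right _ hf
    calc 2 < 2 ^ 2 := by norm_num
      _ ≤ p ^ 2 := Nat.pow_le_pow_left hp.two_le 2
      _ ≤ p ^ (f * (m - 1)) := Nat.pow_le_pow_right hp.pos h1
  have hyA : ∀ a ∈ A, y * a * y⁻¹ ∈ A := c.hAn y c.hy
  -- the centraliser
  let A0 : Subgroup (V ≃ₗ[F] V) := A ⊓ Subgroup.centralizer {y}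
  have hA0 : A0 ≤ A := inf_le_left
  have hA0m : ∀ a, a ∈ A0 ↔ a ∈ A ∧ y * a = a * y := by
    intro a
    rw [Subgroup.mem_inf, Subgroup.mem_centralizer_singleton_iff]
    exact and_congr_right fun _ => eq_comm
  have hAp : IsPGroup p A := IsPGroup.of_card c.hAc
  obtain ⟨j, hj⟩ := (IsPGroup.iff_card.1 (hAp.to_le hA0))
  have hmod : Nat.card A ≡ Nat.card A0 [MOD r] := by
    have hz : ∀ k : Subgroup.zpowers y, ∀ a ∈ A, (k : V ≃ₗ[F] V) * a * (k : V ≃ₗ[F] V)⁻¹ ∈ A := by
      rintro ⟨k, hk⟩ a ha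
      exact c.hAn k ((Subgroup.zpowers_le.2 c.hy) hk) a ha
    letI : MulAction (Subgroup.zpowers y) A :=
      { smul := fun k a => ⟨(k : V ≃ₗ[F] V) * a.1 * (k : V ≃ₗ[F] V)⁻¹, hz k a.1 a.2⟩
        one_smul := fun a => Subtype.ext (by
          change (1 : V ≃ₗ[F] V) * a.1 * (1 : V ≃ₗ[F] V)⁻¹ = a.1
          simp)
        mul_smul := fun k l a => Subtype.ext (by
          change ((k : V ≃ₗ[F] V) * (l : V ≃ₗ[F] V)) * a.1 * ((k : V ≃ₗ[F] V) * (l : V ≃ₗ[F] V))⁻¹ =
            (k : V ≃ₗ[F] V) * ((l : V ≃ₗ[F] V) * a.1 * (l : V ≃ₗ[F] V)⁻¹) * (k : V ≃ₗ[F] V)⁻¹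
          group) }
    have hP : IsPGroup r (Subgroup.zpowers y) := by
      apply IsPGroup.of_card (n := 1)
      rw [Nat.card_zpowers, c.hyr, pow_one]
    have h1 := hP.card_modEq_card_fixedPoints A
    have h2 : Nat.card (MulAction.fixedPoints (Subgroup.zpowers y) A) = Nat.card A0 := by
      refine Nat.card_congr ⟨fun a => ⟨a.1.1, (hA0m _).2 ⟨a.1.2, ?_⟩⟩, fun a => ⟨⟨a.1, hA0 a.2⟩, ?_⟩, fun a => rfl, fun a => rfl⟩
      · have h3 := congrArg Subtype.val (a.2 ⟨y, Subgroup.mem_zpowers y⟩)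
        exact mul_inv_eq_iff_eq_mul.1 h3
      · rintro ⟨k, hk⟩
        apply Subtype.ext
        change k * a.1 * k⁻¹ = a.1
        rw [mul_inv_eq_iff_eq_mul]
        have h3 := ((hA0m _).1 a.2).2
        obtain ⟨i, rfl⟩ := (Submonoid.mem_powers_iff _ _).1 ((mem_powers_iff_mem_zpowers).2 hk)
        have h4 : Commute y a.1 := h3
        exact (h4.pow_left i).eq
    rw [h2] at h1
    exact h1
  have hnj : f * (m - 1) ∣ j := by
    rw [← c.hord]
    apply orderOf_dvd_of_pow_eq_one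
    rw [c.hAc, hj] at hmod
    have h1 := (ZMod.natCast_eq_natCast_iff _ _ _).2 hmod
    push_cast at h1
    rw [← h1, ← c.hord]
    exact pow_orderOf_eq_one _
  rcases Nat.eq_zero_or_pos j with h0 | h0
  · intro a ha hya
    rw [h0, pow_zero, Subgroup.card_eq_one] at hj
    have h1 := (hA0m a).2 ⟨ha, hya⟩
    rwa [hj, Subgroup.mem_bot] at h1
  · -- `y` centralises `A`
    exfalso
    have h1 : Nat.card A ≤ Nat.card A0 := by
      rw [c.hAc, hj]
      exact Nat.pow_le_pow_right hp.pos (Nat.le_of_dvd h0 hnj)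
    have hAA : A0 = A := Subgroup.eq_of_le_of_card_ge hA0 h1
    have hcomm : ∀ a ∈ A, y * a = a * y := fun a ha => ((hA0m a).1 (by rw [hAA]; exact ha)).2
    have hes : y e = e := (hC e).2 (Submodule.subset_span (by simp))
    obtain ⟨α, β, hαβ⟩ := Submodule.mem_span_pair.1 ((hC v).1 c.hy.2)
    have hee : polar Q e e = 0 := by rw [polar_self, he, smul_zero]
    have hgg : polar Q g g = 0 := by rw [polar_self, hg, smul_zero]
    have hge : polar Q g e = 1 := by rw [polar_comm, heg]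
    have hQ : ∀ s t : F, Q (s • e + t • g) = s * t := by
      intro s t
      rw [QuadraticMap.map_add Q, QuadraticMap.map_smul, QuadraticMap.map_smul, he, hg, polar_smul_left, polar_smul_right, heg]
      simp
    have hpv : ∀ s t : F, polar Q (s • e + t • g) v = s * β + t * α := by
      intro s t
      rw [← hαβ, polar_add_left, polar_add_right, polar_add_right, polar_smul_left, polar_smul_left, polar_smul_left,
        polar_smul_left, polar_smul_right, polar_smul_right, polar_smul_right, polar_smul_right, hee, hgg, heg, hge]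
      simp
    have hv := c.hv
    rw [← hαβ, hQ] at hv
    have hα : α ≠ 0 := left_ne_zero_of_mul hv
    have hβ : β ≠ 0 := right_ne_zero_of_mul hv
    -- images of `e`
    have himg : ∀ a ∈ A, a e = e ∨ a e = (β / α) • g := by
      intro a ha
      have h2 : y (a e) = a e := by
        have h3 : (y * a) e = (a * y) e := by rw [hcomm a ha]
        have h4 : y (a e) = a (y e) := h3
        rw [h4, hes]
      obtain ⟨s, t, hst⟩ := Submodule.mem_span_pair.1 ((hC _).1 h2)
      have h3 : s * t = 0 := by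
        rw [← hQ, hst, c.h.iso a (c.hA ha).1, he]
      have h4 : s * β + t * α = β := by
        rw [← hpv, hst]
        have h5 := polar_map (c.h.iso a (c.hA ha).1) e v
        rw [(c.hA ha).2] at h5
        rw [h5]
        have h6 := hpv 1 0
        rw [one_smul, zero_smul, add_zero, one_mul, zero_mul, add_zero] at h6
        exact h6
      rcases mul_eq_zero.1 h3 with h5 | h5
      · right
        rw [h5, zero_mul, zero_add] at h4
        rw [← hst, h5, zero_smul, zero_add, ← h4, mul_div_cancel_right₀ _ hα]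
      · left
        rw [h5, zero_mul, add_zero] at h4
        have h6 : s = 1 := mul_right_cancel₀ hβ (by rw [h4, one_mul])
        rw [← hst, h5, h6, one_smul, zero_smul, add_zero]
    have htriv : ∀ a ∈ A, a e = e → a = 1 := by
      intro a ha hae
      have hav : a v = v := (c.hA ha).2
      refine c.eq_one hm' he hg heg hC (c.hA ha).1 (fun w hw => ?_) hae ?_
      · exact (c.hWA w).2 ⟨0, w, hw, by rw [zero_smul, zero_add]⟩ a ha
      · have h2 : g = β⁻¹ • (v - α • e) := by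
          rw [← hαβ, add_sub_cancel_left, smul_smul, inv_mul_cancel₀ hβ, one_smul]
        rw [h2, map_smul, map_sub, map_smul, hav, hae]
    classical
    have hle : Nat.card A ≤ Nat.card Bool := by
      refine Nat.card_le_card_of_injective (fun a : A => decide ((a : V ≃ₗ[F] V) e = e)) fun a b hab => ?_
      have h2 : ((a : V ≃ₗ[F] V) e = e) ↔ ((b : V ≃ₗ[F] V) e = e) := by simpa using hab
      by_cases h3 : (a : V ≃ₗ[F] V) e = e
      · exact Subtype.ext ((htriv a a.2 h3).trans (htriv b b.2 (h2.1 h3)).symm)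
      · have h4 : ¬ (b : V ≃ₗ[F] V) e = e := fun h => h3 (h2.2 h)
        have h5 := (himg a a.2).resolve_left h3
        have h6 := (himg b b.2).resolve_left h4
        have h7 := htriv ((a : V ≃ₗ[F] V)⁻¹ * b) (A.mul_mem (A.inv_mem a.2) b.2) (by
          change (a : V ≃ₗ[F] V)⁻¹ ((b : V ≃ₗ[F] V) e) = e
          rw [h6, ← h5]
          change ((a : V ≃ₗ[F] V)⁻¹ * a) e = e
          rw [inv_mul_cancel]
          rfl)
        exact Subtype.ext (inv_mul_eq_one.1 h7)
    rw [Nat.card_eq_fintype_card (α := Bool), Fintype.card_bool] at hle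
    omega

/-- `M` is trivial on `W^⊥ / W` -/
theorem M_perp (c : Cx Q p f m K v y r A W) (hm' : Odd (m - 1)) {e g : V} (he : Q e = 0) (hg : Q g = 0) (heg : polar Q e g = 1)
    (hC : ∀ z : V, y z = z ↔ z ∈ Submodule.span F {e, g}) (d : MM p f m K v y A W M) {k : V ≃ₗ[F] V} (hk : k ∈ M) {z : V}
    (hz : ∀ w ∈ W, polar Q z w = 0) : k z - z ∈ W := by
  haveI := finite_equiv F V
  have hcent : ∀ x ∈ M, y * x = x * y → x = 1 := fun x hx hyx => c.cent_A hm' he hg heg hC x (d.hcent x hx hyx) hyx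
  -- every element is `h⁻¹ y h y⁻¹`
  have hinj : Function.Injective (fun h : M => (⟨(h : V ≃ₗ[F] V)⁻¹ * (y * h * y⁻¹), M.mul_mem (M.inv_mem h.2) (d.hyM _ h.2)⟩ : M)) := by
    intro a b hab
    have h1 : (a : V ≃ₗ[F] V)⁻¹ * (y * a * y⁻¹) = (b : V ≃ₗ[F] V)⁻¹ * (y * b * y⁻¹) := congrArg Subtype.val hab
    have h2 := hcent ((b : V ≃ₗ[F] V) * (a : V ≃ₗ[F] V)⁻¹) (M.mul_mem b.2 (M.inv_mem a.2)) (by
      have h3 : (b : V ≃ₗ[F] V) * ((a : V ≃ₗ[F] V)⁻¹ * (y * a * y⁻¹)) * y * (a : V ≃ₗ[F] V)⁻¹ =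
          (b : V ≃ₗ[F] V) * ((b : V ≃ₗ[F] V)⁻¹ * (y * b * y⁻¹)) * y * (a : V ≃ₗ[F] V)⁻¹ := by rw [h1]
      have h4 : (b : V ≃ₗ[F] V) * ((a : V ≃ₗ[F] V)⁻¹ * (y * a * y⁻¹)) * y * (a : V ≃ₗ[F] V)⁻¹ =
          (b : V ≃ₗ[F] V) * (a : V ≃ₗ[F] V)⁻¹ * y := by group
      have h5 : (b : V ≃ₗ[F] V) * ((b : V ≃ₗ[F] V)⁻¹ * (y * b * y⁻¹)) * y * (a : V ≃ₗ[F] V)⁻¹ =
          y * ((b : V ≃ₗ[F] V) * (a : V ≃ₗ[F] V)⁻¹) := by group
      rw [← h5, ← h3, h4])
    exact Subtype.ext (mul_inv_eq_one.1 h2).symm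
  obtain ⟨h, hh⟩ := Finite.injective_iff_surjective.1 hinj ⟨k, hk⟩
  have hk' : (h : V ≃ₗ[F] V)⁻¹ * (y * h * y⁻¹) = k := congrArg Subtype.val hh
  have h1 : (h : V ≃ₗ[F] V) * k * y = y * h := by
    rw [← hk']
    group
  -- `y` is trivial on `W^⊥ / W`
  have hy : ∀ x : V, (∀ w ∈ W, polar Q x w = 0) → y x - x ∈ W := by
    intro x hx
    obtain ⟨a, b, w, hw, rfl⟩ := c.perp he hg heg hC hx
    have hes : y e = e := (hC e).2 (Submodule.subset_span (by simp))
    have hgs : y g = g := (hC g).2 (Submodule.subset_span (by simp))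
    rw [map_add, map_add, map_smul, map_smul, hes, hgs, add_sub_add_left_eq_sub]
    exact W.sub_mem (c.hWy w hw) hw
  have hhz : ∀ w ∈ W, polar Q ((h : V ≃ₗ[F] V) z) w = 0 := by
    intro w hw
    rw [← c.M_triv d h h.2 w hw, polar_map (c.h.iso h (d.hMK h.2))]
    exact hz w hw
  have h2 := hy z hz
  have h3 := hy _ hhz
  have h4 : (h : V ≃ₗ[F] V) (k (y z)) = y ((h : V ≃ₗ[F] V) z) := by
    change ((h : V ≃ₗ[F] V) * k * y) z = (y * h) z
    rw [h1]
  have h5 : y z = z + (y z - z) := by abel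
  rw [h5, map_add, map_add, c.M_triv d k hk _ h2, c.M_triv d h h.2 _ h2] at h4
  have h6 : (h : V ≃ₗ[F] V) (k z - z) ∈ W := by
    have h7 : (h : V ≃ₗ[F] V) (k z - z) = (y ((h : V ≃ₗ[F] V) z) - (h : V ≃ₗ[F] V) z) - (y z - z) := by
      rw [map_sub, ← h4]
      abel
    rw [h7]
    exact W.sub_mem h3 h2
  have h7 := c.M_triv d _ (M.inv_mem h.2) _ h6
  have h8 : (h : V ≃ₗ[F] V)⁻¹ ((h : V ≃ₗ[F] V) (k z - z)) = k z - z := by
    change ((h : V ≃ₗ[F] V)⁻¹ * h) (k z - z) = k z - z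
    rw [inv_mul_cancel]
    rfl
  rw [h8] at h7
  rw [h7]
  exact h6

/-- **(iv)** -/
theorem last (c : Cx Q p f m K v y r A W) (hm' : Odd (m - 1)) (d : MM p f m K v y A W M) : False := by
  haveI := finite_equiv F V
  haveI : Finite V := Module.finite_of_finite F
  obtain ⟨e, g, he, hg, heg, hC⟩ := c.h.fixplane c.hr c.hord c.hy.1 c.hyr
  have hee : polar Q e e = 0 := by rw [polar_self, he, smul_zero]
  have hgg : polar Q g g = 0 := by rw [polar_self, hg, smul_zero]
  have hes : y e = e := (hC e).2 (Submodule.subset_span (by simp))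
  have hgs : y g = g := (hC g).2 (Submodule.subset_span (by simp))
  have hinj : ∀ k ∈ M, k e = e → k g = g → k = 1 := fun k hk hke hkg =>
    c.eq_one hm' he hg heg hC (d.hMK hk) (c.M_triv d k hk) hke hkg
  have hMe : ∀ k ∈ M, k e - e ∈ W := fun k hk => c.M_perp hm' he hg heg hC d hk fun w hw => c.polar_fix hes hw
  have hMg : ∀ k ∈ M, k g - g ∈ W := fun k hk => c.M_perp hm' he hg heg hC d hk fun w hw => c.polar_fix hgs hw
  have hsurj : ∀ x ∈ W, ∀ x' ∈ W, ∃ k ∈ M, k e = e + x ∧ k g = g + x' := by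
    have hbij : Function.Bijective (fun k : M => ((⟨(k : V ≃ₗ[F] V) e - e, hMe k k.2⟩, ⟨(k : V ≃ₗ[F] V) g - g, hMg k k.2⟩) : W × W)) := by
      rw [Nat.bijective_iff_injective_and_card]
      constructor
      · intro a b hab
        have h1 : (a : V ≃ₗ[F] V) e - e = (b : V ≃ₗ[F] V) e - e := congrArg (fun x : W × W => (x.1 : V)) hab
        have h2 : (a : V ≃ₗ[F] V) g - g = (b : V ≃ₗ[F] V) g - g := congrArg (fun x : W × W => (x.2 : V)) hab
        have hcan : ∀ z : V, (b : V ≃ₗ[F] V)⁻¹ ((b : V ≃ₗ[F] V) z) = z := by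
          intro z
          change ((b : V ≃ₗ[F] V)⁻¹ * b) z = z
          rw [inv_mul_cancel]
          rfl
        have h3 := hinj ((b : V ≃ₗ[F] V)⁻¹ * a) (M.mul_mem (M.inv_mem b.2) a.2) (by
          change (b : V ≃ₗ[F] V)⁻¹ ((a : V ≃ₗ[F] V) e) = e
          rw [sub_left_inj.1 h1, hcan]) (by
          change (b : V ≃ₗ[F] V)⁻¹ ((a : V ≃ₗ[F] V) g) = g
          rw [sub_left_inj.1 h2, hcan])
        exact Subtype.ext (inv_mul_eq_one.1 h3).symm
      · rw [d.hMc, Nat.card_prod, Module.natCard_eq_pow_finrank (K := F) (V := W), c.h.hF, c.hWd, ← pow_mul, ← pow_add]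
        congr 1
        ring
    intro x hx x' hx'
    obtain ⟨k, hk⟩ := hbij.2 (⟨x, hx⟩, ⟨x', hx'⟩)
    have h1 : (k : V ≃ₗ[F] V) e - e = x := congrArg (fun x : W × W => (x.1 : V)) hk
    have h2 : (k : V ≃ₗ[F] V) g - g = x' := congrArg (fun x : W × W => (x.2 : V)) hk
    exact ⟨k, k.2, by rw [← h1]; abel, by rw [← h2]; abel⟩
  obtain ⟨x', hx', hx'0⟩ := c.W_ne
  obtain ⟨x, hx, hxx⟩ : ∃ x ∈ W, ∀ t : F, x ≠ t • x' := by
    by_contra hcon
    push Not at hcon
    have h1 : W ≤ Submodule.span F {x'} := by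
      intro x hx
      obtain ⟨t, ht⟩ := hcon x hx
      rw [Submodule.mem_span_singleton]
      exact ⟨t, ht.symm⟩
    have h2 := (Submodule.finrank_mono h1).trans (finrank_span_singleton hx'0).le
    have h3 := c.h.hm
    rw [c.hWd] at h2
    omega
  refine no_group (B := Q.polarBilin) (W := W) (e := e) (f := g) (M := M) (x := x) (y := x') (fun a b => polar_comm Q a b) hee hgg heg
    (fun w hw => ?_) (fun w hw => ?_) (fun w hw w' hw' => c.W_polar hw hw') (fun z hz => c.perp he hg heg hC hz)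
    (fun w _ hw0 => ?_) (fun k hk a b => polar_map (c.h.iso k (d.hMK hk)) a b) (c.M_triv d) hMe hMg hinj hsurj hx hx' hx'0 hxx
  · rw [polarBilin_apply_apply, polar_comm]
    exact c.polar_fix hes hw
  · rw [polarBilin_apply_apply, polar_comm]
    exact c.polar_fix hgs hw
  · by_contra hcon
    push Not at hcon
    apply hw0
    apply c.h.nd
    intro z
    rw [polar_comm]
    exact hcon z

end Cx

end Cfsg.Agent.H454.Rg
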