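import Cfsg.Agent.S0042
import Cfsg.Agent.S0034
import Cfsg.Agent.Lib.SubnormalJoin
import Cfsg.Agent.SolvableStructure.MinimalNormal

/-!
# S3691, F-D+2, common part 11.3 (iii): the group `Γ = N / A` acting on the affine space `v + W'` (helper454)

* `solvable_of_frob` : a Frobenius group with solvable complement is solvable
* `frob_of_action` : the point stabiliser is a Frobenius complement
* `exists_regular` : **(iii)** `Γ` has a normal subgroup `M` of order `p ^ n` acting regularly, `C_M(y) = 1`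
-/

set_option autoImplicit false
set_option linter.style.haveILetI false

namespace Cfsg.Agent.H454.Rg

open scoped Pointwise

/-- a Frobenius group with solvable complement is solvable -/
theorem solvable_of_frob {Γ : Type*} [Group Γ] [Finite Γ] (H : Subgroup Γ) (hH : Cfsg.IsFrobeniusComplement H)
    (hs : Group.IsSolvable H) : Group.IsSolvable Γ := by
  obtain ⟨K, hK, hKn, hKnil⟩ := Cfsg.Agent.S0042.result H hH
  have hcard := (Cfsg.Agent.S0034.result H hH).1
  rw [← hK] at hcard
  have hcard' : Nat.card K = H.index := hcard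
  -- `H ∩ K = 1`
  have hdisj : H ⊓ K = ⊥ := by
    rw [Subgroup.eq_bot_iff_forall]
    rintro x ⟨hx1, hx2⟩
    have h1 : x ∈ Cfsg.frobeniusKernel H := by rw [← hK]; exact hx2
    rcases h1 with h1 | h1
    · exact h1
    · exfalso
      apply h1 1
      rw [map_one, one_smul]
      exact hx1
  have hindex : Nat.card (Γ ⧸ K) = Nat.card H := by
    have h1 : Nat.card K * K.index = Nat.card Γ := K.card_mul_index
    have h2 : Nat.card H * H.index = Nat.card Γ := H.card_mul_index
    rw [← hcard'] at h2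
    have h3 : Nat.card K * K.index = Nat.card K * Nat.card H := by rw [h1, ← h2, mul_comm]
    exact Nat.eq_of_mul_eq_mul_left Nat.card_pos h3
  -- `H → Γ / K` is bijective
  have hinj : Function.Injective ((QuotientGroup.mk' K).comp H.subtype) := by
    rw [injective_iff_map_eq_one]
    intro x hx
    have h1 : (x : Γ) ∈ K := (QuotientGroup.eq_one_iff _).1 hx
    have h2 : (x : Γ) ∈ H ⊓ K := ⟨x.2, h1⟩
    rw [hdisj, Subgroup.mem_bot] at h2
    exact Subtype.ext h2
  have hbij : Function.Bijective ((QuotientGroup.mk' K).comp H.subtype) := by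
    rw [Nat.bijective_iff_injective_and_card]
    exact ⟨hinj, hindex.symm⟩
  have hq : Group.IsSolvable (Γ ⧸ K) := Group.isSolvable_of_surjective hbij.2
  have hk : Group.IsSolvable K := by
    haveI := hKnil
    infer_instance
  exact Group.isSolvable_of_ker_le_range K.subtype (QuotientGroup.mk' K) (by rw [QuotientGroup.ker_mk', Subgroup.range_subtype])

section action

variable {Γ Ω : Type*} [Group Γ] [Finite Γ] [MulAction Γ Ω]

/-- the point stabiliser is a Frobenius complement -/
theorem frob_of_action {p : ℕ} (v : Ω) (hne : MulAction.stabilizer Γ v ≠ ⊤) (hne' : MulAction.stabilizer Γ v ≠ ⊥)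
    (hst : ¬ p ∣ Nat.card (MulAction.stabilizer Γ v)) (hodd : Odd (Nat.card (MulAction.stabilizer Γ v)))
    (hfix : ∀ s : ℕ, s.Prime → s ≠ p → s ≠ 2 → ∀ g : Γ, orderOf g = s → ∀ x x' : Ω, g • x = x → g • x' = x' → x = x') :
    Cfsg.IsFrobeniusComplement (MulAction.stabilizer Γ v) := by
  refine ⟨hne', hne, fun g hg => ?_⟩
  rw [Subgroup.eq_bot_iff_forall]
  rintro k ⟨hk1, hk2⟩
  by_contra hk
  -- an element of prime order in `⟨k⟩`
  obtain ⟨s, hs, hdvd⟩ := Nat.exists_prime_and_dvd (n := orderOf k) fun h => hk (orderOf_eq_one_iff.1 h)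
  have hord : orderOf (k ^ (orderOf k / s)) = s := by
    rw [orderOf_pow_of_dvd (Nat.div_pos (Nat.le_of_dvd (orderOf_pos k) hdvd) hs.pos).ne' (Nat.div_dvd_of_dvd hdvd),
      Nat.div_div_self hdvd (orderOf_pos k).ne']
  have hsc : s ∣ Nat.card (MulAction.stabilizer Γ v) :=
    hdvd.trans ((Subgroup.orderOf_coe (⟨k, hk1⟩ : MulAction.stabilizer Γ v)) ▸ orderOf_dvd_natCard _)
  have hsp : s ≠ p := by
    rintro rfl
    exact hst hsc
  have hs2 : s ≠ 2 := by
    rintro rfl
    exact (Nat.not_even_iff_odd.2 hodd) (even_iff_two_dvd.2 hsc)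
  have h1 : k • v = v := hk1
  have h2 : k • (g • v) = g • v := by
    obtain ⟨c, hc, hck⟩ := Subgroup.mem_smul_pointwise_iff_exists k (MulAut.conj g) (MulAction.stabilizer Γ v) |>.1 hk2
    have h3 : c • v = v := hc
    rw [← hck]
    change (g * c * g⁻¹) • (g • v) = g • v
    rw [mul_smul, mul_smul, inv_smul_smul, h3]
  have hpow : ∀ x : Ω, k • x = x → ∀ j : ℕ, k ^ j • x = x := by
    intro x hx j
    induction j with
    | zero => rw [pow_zero, one_smul]
    | succ j ih => rw [pow_succ, mul_smul, hx, ih]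
  have h3 := hfix s hs hsp hs2 _ hord v (g • v) (hpow v h1 _) (hpow _ h2 _)
  exact hg h3.symm

/-- **(iii)** -/
theorem exists_regular [Finite Ω] {p n r : ℕ} (hp : p.Prime) (hn : 0 < n) (hΩ : Nat.card Ω = p ^ n) (hsol : Group.IsSolvable Γ)
    (hst : ∀ x : Ω, ¬ p ∣ Nat.card (MulAction.stabilizer Γ x))
    (hfix : ∀ s : ℕ, s.Prime → s ≠ p → ∀ g : Γ, orderOf g = s → ∀ x x' : Ω, g • x = x → g • x' = x' → x = x')
    {v : Ω} (hne : MulAction.stabilizer Γ v ≠ ⊤) {y : Γ} (hy : ∀ x : Ω, y • x = x ↔ x = v) (hr : r.Prime) (hyr : y ^ r = 1)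
    (hrn : orderOf (p : ZMod r) = n) :
    ∃ M : Subgroup Γ, M.Normal ∧ Nat.card M = p ^ n ∧ (∀ x x' : Ω, ∃ m ∈ M, m • x = x') ∧
      (∀ m ∈ M, ∀ x : Ω, m • x = x → m = 1) ∧ (∀ m ∈ M, y * m = m * y → m = 1) := by
  classical
  haveI : Fact p.Prime := ⟨hp⟩
  haveI : Fact r.Prime := ⟨hr⟩
  haveI : Nontrivial Γ := by
    by_contra h
    rw [not_nontrivial_iff_subsingleton] at h
    exact hne (Subsingleton.elim _ _)
  haveI := hsol
  obtain ⟨M, hMn, hMne, hMmin⟩ := Cfsg.Agent.Lib.SubnormalJoin.exists_minimal_normal Γ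
  haveI := hMn
  obtain ⟨s, j, hs, hj, hMcard, hMexp⟩ :=
    Cfsg.Agent.SolvableStructure.MinimalNormal.exists_prime_of_minimal_normal M hMne hMmin
  haveI : Fact s.Prime := ⟨hs⟩
  have hMs : IsPGroup s M := IsPGroup.of_card hMcard
  by_cases hsp : s = p
  · subst hsp
    -- semiregular
    have hsemi : ∀ m ∈ M, ∀ x : Ω, m • x = x → m = 1 := by
      intro m hm x hmx
      by_contra hne1
      have h1 : orderOf m = s := orderOf_eq_prime (hMexp m hm) hne1
      apply hst x
      rw [← h1]
      have h2 := orderOf_dvd_natCard (⟨m, hmx⟩ : MulAction.stabilizer Γ x)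
      rwa [← Subgroup.orderOf_coe] at h2
    have hcent : ∀ m ∈ M, y * m = m * y → m = 1 := by
      intro m hm hmy
      apply hsemi m hm v
      rw [← hy, ← mul_smul, hmy, mul_smul, (hy v).2 rfl]
    -- `|M| ≤ s ^ n`
    have hle : Nat.card M ≤ s ^ n := by
      rw [← hΩ]
      refine Nat.card_le_card_of_injective (fun m : M => (m : Γ) • v) fun a b hab => ?_
      have h1 : ((b : Γ)⁻¹ * a) • v = v := by
        rw [mul_smul]
        have : (a : Γ) • v = (b : Γ) • v := hab
        rw [this, inv_smul_smul]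
      have h2 := hsemi _ (M.mul_mem (M.inv_mem b.2) a.2) v h1
      exact Subtype.ext (inv_mul_eq_one.1 h2).symm
    -- `r ∣ |M| - 1`
    have hmod : Nat.card M ≡ 1 [MOD r] := by
      letI : MulAction (Subgroup.zpowers y) M :=
        MulAction.compHom M ((MulAut.conjNormal (H := M)).comp (Subgroup.zpowers y).subtype)
      have hP : IsPGroup r (Subgroup.zpowers y) := by
        have h1 : orderOf y ∣ r := orderOf_dvd_of_pow_eq_one hyr
        rcases (Nat.dvd_prime hr).1 h1 with h2 | h2
        · apply IsPGroup.of_card (n := 0)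
          rw [Nat.card_zpowers, h2, pow_zero]
        · apply IsPGroup.of_card (n := 1)
          rw [Nat.card_zpowers, h2, pow_one]
      have h1 := hP.card_modEq_card_fixedPoints M
      have h2 : Nat.card (MulAction.fixedPoints (Subgroup.zpowers y) M) = 1 := by
        rw [Nat.card_eq_one_iff_exists]
        refine ⟨⟨1, fun k => ?_⟩, ?_⟩
        · exact map_one (MulAut.conjNormal (H := M) (k : Γ))
        · rintro ⟨m, hm⟩
          have h3 : MulAut.conjNormal (H := M) y m = m := hm ⟨y, Subgroup.mem_zpowers y⟩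
          have h4 := congrArg Subtype.val h3
          rw [MulAut.conjNormal_apply] at h4
          have h5 := hcent m m.2 (mul_inv_eq_iff_eq_mul.1 h4)
          apply Subtype.ext
          exact Subtype.ext h5
      rw [h2] at h1
      exact h1
    have hnj : n ∣ j := by
      rw [← hrn]
      apply orderOf_dvd_of_pow_eq_one
      rw [hMcard] at hmod
      have h1 := (ZMod.natCast_eq_natCast_iff _ _ _).2 hmod
      push_cast at h1
      exact h1
    have hjn : j = n := by
      apply le_antisymm
      · rw [hMcard] at hle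
        exact (Nat.pow_le_pow_iff_right hs.one_lt).1 hle
      · exact Nat.le_of_dvd hj hnj
    subst hjn
    refine ⟨M, hMn, hMcard, fun x x' => ?_, hsemi, hcent⟩
    have hinj : Function.Injective (fun m : M => (m : Γ) • x) := by
      intro a b hab
      have h1 : ((b : Γ)⁻¹ * a) • x = x := by
        rw [mul_smul]
        have : (a : Γ) • x = (b : Γ) • x := hab
        rw [this, inv_smul_smul]
      have h2 := hsemi _ (M.mul_mem (M.inv_mem b.2) a.2) x h1
      exact Subtype.ext (inv_mul_eq_one.1 h2).symm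
    have hbij : Function.Bijective (fun m : M => (m : Γ) • x) := by
      rw [Nat.bijective_iff_injective_and_card]
      exact ⟨hinj, by rw [hMcard, hΩ]⟩
    obtain ⟨m, hm⟩ := hbij.2 x'
    exact ⟨m, m.2, hm⟩
  · -- `s ≠ p` : `M` has a unique fixed point
    exfalso
    have hnd : ¬ s ∣ Nat.card Ω := by
      rw [hΩ]
      intro h
      exact hsp ((Nat.prime_dvd_prime_iff_eq hs hp).1 (hs.dvd_of_dvd_pow h))
    obtain ⟨x0, hx0⟩ := hMs.nonempty_fixed_point_of_prime_not_dvd_card Ω hnd
    obtain ⟨m, hm, hm1⟩ : ∃ m ∈ M, m ≠ 1 := by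
      by_contra h
      push Not at h
      exact hMne ((Subgroup.eq_bot_iff_forall M).2 h)
    have hord : orderOf m = s := orderOf_eq_prime (hMexp m hm) hm1
    have huniq : ∀ x : Ω, (∀ m ∈ M, m • x = x) → x = x0 := fun x hx =>
      hfix s hs hsp m hord x x0 (hx m hm) (hx0 ⟨m, hm⟩)
    have hall : ∀ g : Γ, g • x0 = x0 := by
      intro g
      apply huniq
      intro m hm
      have h1 : g⁻¹ * m * g ∈ M := by
        have := hMn.conj_mem m hm g⁻¹
        rwa [inv_inv] at this
      have h2 : (g⁻¹ * m * g) • x0 = x0 := hx0 ⟨_, h1⟩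
      rw [mul_smul, mul_smul, inv_smul_eq_iff] at h2
      exact h2
    have hx0v : x0 = v := (hy x0).1 (hall y)
    apply hne
    rw [eq_top_iff]
    intro g _
    rw [← hx0v]
    exact hall g

end action

end Cfsg.Agent.H454.Rg
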